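import Mathlib
import Cfsg.Agent.TT.TildeCover
import Cfsg.Agent.KSG.MultCov
import Cfsg.Agent.Spor.MultG24
import Cfsg.Agent.Spor.CovG24
import Cfsg.Agent.Chev.Aut
import Cfsg.Prelude.Def_CaseTheorems

/-! The central involution of `2 G₂(4)` is a square. -/

set_option autoImplicit false
set_option linter.style.haveILetI false

namespace Cfsg.Agent.Q17

open Cfsg Subgroup Cfsg.Agent.KSG.Pc
open Cfsg.Agent.Comp hiding mapR chkCover mapR_eq
open scoped commutatorElement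

theorem g24_two {A : Type*} [Group A] {Z : Subgroup A} (hZ : Nat.card Z = 2) {t a : A} (ht : t ∈ Z)
    (t1 : t ≠ 1) (ha : a ∈ Z) : a = 1 ∨ a = t := by
  obtain ⟨y, -, hy⟩ := (Nat.card_eq_two_iff' 1).1 hZ
  exact or_iff_not_imp_left.2 fun d => congrArg Subtype.val
    ((hy ⟨a, ha⟩ fun c => d (congrArg Subtype.val c)).trans
      (hy ⟨t, ht⟩ fun c => t1 (congrArg Subtype.val c)).symm)

/-- A double cover is isomorphic to the model checked by `chkCover`. -/
theorem g24_model {N' w' N w n : ℕ} {ns' ns : List Net} (c' : Ctx N' w' ns') (c : Ctx N w ns)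
    {ps : List (List ℕ × List ℕ)} {bs bs' : List ℕ} {z : List ℕ × List ℕ × List ℕ × ℕ}
    (h : chkCover N' w' ns' N w ns n ps bs bs' [z] = true)
    (hz : gen ns' [z.1] ≤ gen ns' (mapR Prod.fst ps))
    (hb : StabIn N' (gen ns' (mapR Prod.fst ps)) (gen ns' [z.1]) bs)
    (hb' : IsBase N' (gen ns' (mapR Prod.fst ps)) bs') (hm : Nat.card (gen ns' [z.1]) = 2)
    {k : ℕ} (k0 : 0 < k) (kp : ¬ k.Prime) (hX : Nat.card (gen ns' (mapR Prod.fst ps)) = 2 * k)
    (hY : Nat.card (gen ns (mapR Prod.snd ps)) = k) [IsSimpleGroup (gen ns (mapR Prod.snd ps))]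
    (hB : MultBound 2 1 (gen ns (mapR Prod.snd ps))) {H : Type*} [Group H] [Finite H]
    (hq : IsQuasisimple H) (h2 : Nat.card (center H) = 2)
    (e : H ⧸ center H ≃* gen ns (mapR Prod.snd ps)) :
    ∃ (ψ : gen ns' (mapR Prod.fst ps) ≃* H) (y : gen ns' (mapR Prod.fst ps)),
      ψ y ^ z.2.2.2 ∈ center H ∧ ψ y ^ z.2.2.2 ≠ 1 ∧ (y : Equiv.Perm ℕ) ^ z.2.2.2 = wp ns' z.1 := by
  obtain ⟨ξ, h1, h3, h4⟩ := exists_cover c' c h hz hb hb'
  simp only [chkCover, and'_eq_true, allL_iff, blt_iff] at h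
  obtain ⟨-, -, z3⟩ := h.2.2 z List.mem_cons_self
  let X := gen ns' (mapR Prod.fst ps)
  have : Finite X := Nat.finite_of_card_ne_zero (by rw [hX]; omega)
  have m : wp ns' z.1 ∈ gen ns' [z.1] := wp_mem_gen ns' List.mem_cons_self
  have a1 := subW_mem ns' (mapR Prod.fst ps) z.2.1
  have a2 := subW_mem ns' (mapR Prod.fst ps) z.2.2.1
  have e1 : (⟨_, hz m⟩ : X) = ⁅(⟨_, a1⟩ : X), (⟨_, a2⟩ : X)⁆ ^ z.2.2.2 := by
    rw [← inv_mul_eq_one, ← OneMemClass.coe_eq_one]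
    refine hb'.2 _ (Subtype.prop _) fun b hb'' => ?_
    have := wp_apply_of_mapsW c'.ok (hb'.1 b hb'') (z3 b hb'')
    rwa [appendR_eq, wp_append, wp_invW, wp_powW, wp_commW] at this
  have h5 := h4 (show (⟨_, hz m⟩ : X) ∈ _ from m)
  have h6 : gen ns' [z.1] = zpowers (wp ns' z.1) :=
    le_antisymm (gen_le_iff.2 fun u hu => by
      rw [List.mem_singleton.1 hu]; exact mem_zpowers _) (zpowers_le.2 m)
  have o : orderOf (⟨_, hz m⟩ : X) = 2 := by rw [← orderOf_coe, ← Nat.card_zpowers, ← hm, h6]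
  let ζ : X := ⟨_, hz m⟩
  have ζ1 : ζ ≠ 1 := fun d => by rw [show (⟨_, hz m⟩ : X) = 1 from d] at o; simp at o
  have h7 : Nat.card ξ.ker = 2 := by
    have := ξ.ker.card_mul_index
    rw [index_ker, MonoidHom.range_eq_top.2 h1, card_top, hY, hX] at this
    exact Nat.eq_of_mul_eq_mul_right k0 this
  have h8 : ∀ a, ξ a = 1 ↔ a = 1 ∨ a = ζ := fun a => ⟨g24_two h7 h5.1 ζ1, by
    rintro (rfl | rfl)
    exacts [map_one ξ, h5.1]⟩
  have D : TT.DCov ξ ζ := by
    refine ⟨Group.isPerfect_def.2 ?_, h1, h3 h5.1, ζ1, by rw [← pow_two, ← o, pow_orderOf_eq_one], h8⟩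
    have c : ((commutator X).map ξ).comap ξ = ⊤ := by
      rw [map_commutator_eq, MonoidHom.range_eq_top.2 h1, ← commutator_def,
        commutator_eq_top_of_simple (hY ▸ kp), comap_top]
    rwa [comap_map_eq, sup_eq_left.2 fun a ha => by
      rcases (h8 a).1 ha with rfl | rfl
      exacts [one_mem _, h5.2]] at c
  obtain ⟨t, t1, -⟩ := (Nat.card_eq_two_iff' (1 : center H)).1 h2
  have t2 : (t : H) ≠ 1 := fun d => t1 (Subtype.ext d)
  obtain ⟨ψ, hψ⟩ := TT.DCov.exists_equiv (MulEquiv.refl _) (e := 1) hB (n := 1) le_rfl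
    (σ := fun _ => ξ) (fun _ => D) (fun i j c => absurd (Subsingleton.elim i j) c) (w := (t : H))
    (π := e.toMonoidHom.comp (QuotientGroup.mk' _))
    ⟨hq.1, e.surjective.comp (QuotientGroup.mk'_surjective _), t.2, t2, by
      rw [← pow_two, ← h2, ← coe_pow, pow_card_eq_one', coe_one], fun a => by
        simpa using ⟨g24_two h2 t.2 t2, by rintro (rfl | rfl); exacts [one_mem _, t.2]⟩⟩
  refine ⟨ψ, ⁅(⟨_, a1⟩ : X), (⟨_, a2⟩ : X)⁆, ?_, ?_, (congrArg Subtype.val e1).symm⟩ <;>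
    rw [← map_pow, ← e1, hψ]
  exacts [t.2, t2]

theorem g24_equiv {F : Type} [Field F] [Fintype F] (h : Fintype.card F = 4) :
    Nonempty (Lie.chevG2.group F ≃* gen Spor.ModelG24.ns Spor.ModelG24.G_ss0) :=
  let e := Class.ringEquivGF4 h
  ⟨(MonoidHom.toMulEquiv (Chev.fieldHom _ (e : F →+* Class.GF4)) (Chev.fieldHom _ (e.symm : Class.GF4 →+* F))
    (MonoidHom.ext fun g => by simp [Chev.fieldHom_comp, Chev.fieldHom_id])
    (MonoidHom.ext fun g => by simp [Chev.fieldHom_comp, Chev.fieldHom_id])).trans Spor.ModelG24.equiv⟩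

open Spor.CovG24 in
theorem g24_sq {H : Type*} [Group H] [Finite H] {F : Type} [Field F] [Fintype F]
    (hq : IsQuasisimple H) (hz : Nat.card (center H) = 2) (h : Fintype.card F = 4)
    (e : H ⧸ center H ≃* Lie.chevG2.group F) : ∃ g : H, g * g ∈ center H ∧ g * g ≠ 1 := by
  obtain ⟨ε⟩ := g24_equiv h
  have := hq.2
  have : IsSimpleGroup (gen Spor.ModelG24.ns (mapR Prod.snd ps)) := (e.trans ε).symm.isSimpleGroup
  obtain ⟨ψ, y, h1, h2, -⟩ := g24_model ctx Spor.ModelG24.ctx (ps := ps) chk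
    (((X_ver0.nested X_l6 (by simp [X_C0, X_C1, X_C2, X_C3, X_C4, X_C5, X_C6])).trans X_eq.ge :))
    (X_eq ▸ hb :) (X_eq ▸ hb' :) X_ver6.card (k := 251596800) (by norm_num) (by norm_num)
    X_card Spor.ModelG24.G_card (Spor.MultG24.geq ▸ Spor.MultG24.bounds (2, 1) (by simp) :) hq hz
    (e.trans ε)
  exact ⟨ψ y ^ 3, by rwa [← pow_add], by rwa [← pow_add]⟩

end Cfsg.Agent.Q17
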